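import Mathlib
import Cfsg.Agent.Lib.SzIso.SchurSz
import Cfsg.Agent.Lib.SchurCert.F8
import Cfsg.Agent.Lib.SchurCert.Upper

/-!
# Central extensions of `Sz(8)`

The commutators of lifts of the centre of a Sylow 2-subgroup with lifts of the group are values of an additive map
`k` of the field, `k 1 = 1` by the Hall-Witt identity, and the kernel is the image of `k`.
-/

set_option autoImplicit false
set_option linter.unusedSimpArgs false
set_option linter.unusedSectionVars false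
set_option linter.style.haveILetI false

namespace Cfsg.Agent.Lib.SchurCert.Sz8.Upper

open Cfsg Cfsg.Agent.Lib.Suzuki.Core Cfsg.Agent.Lib.Suzuki.Elements
  Cfsg.Agent.Lib.Suzuki.Stab Cfsg.Agent.Lib.Suzuki.Group Cfsg.Agent.Lib.Suzuki.Simple
  Cfsg.Agent.Lib.Suzuki.Sylow2 Cfsg.Agent.Lib.Suzuki.Count Cfsg.Agent.Lib.SzIso.OutSz
  Cfsg.Agent.Lib.SzIso.SubSz Cfsg.Agent.Lib.Suzuki.Cyc Cfsg.Agent.Lib.Suzuki.CN
  Cfsg.Agent.Lib.SuzukiX.Partition Cfsg.Agent.Lib.SuzukiX.Central Cfsg.Agent.Lib.SzIso.MaxSz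
  Cfsg.Agent.Lib.SzIso.SolSz Cfsg.Agent.Lib.SzIso.SchurSz Cfsg.Agent.Lib.SchurCert.F8
open scoped commutatorElement

section KKlemmas

variable {F : Type*} [Field F] [Fintype F] [CharP F 2] {m : ℕ} (hc : Ctx F m)
variable {Γ : Type*} [Group Γ] (σ : Γ →* Sz F m) (hσ : Function.Surjective σ)
  (hC : σ.ker ≤ Subgroup.center Γ)

/-- The form on the centre and the group vanishes. -/
def HB : Prop := ∀ b a : F, cf σ hσ (uS hc 0 b) (uS hc a 0) = 1

include hC in
lemma cf_zero_eq (b a a' : F) : cf σ hσ (uS hc 0 b) (uS hc a a') = cf σ hσ (uS hc 0 b) (uS hc a 0) := by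
  rw [uS_split hc a a', cf_mul_right' σ hσ hC (commute_zero hc _ _ _) (commute_zero hc _ _ _),
    cf_zero_zero hc σ hσ hC, mul_one]

include hC in
lemma cf_zero_any' (hB : HB hc σ hσ) (b a a' : F) : cf σ hσ (uS hc 0 b) (uS hc a a') = 1 := by
  rw [cf_zero_eq hc σ hσ hC, hB]

include hσ hC in
lemma commute_lift' (hB : HB hc σ hσ) {x y : Γ} {b a a' : F} (hx : σ x = uS hc 0 b) (hy : σ y = uS hc a a') :
    Commute x y := by
  rw [← commutatorElement_eq_one_iff_commute, cf_eq σ hσ hC hx hy, cf_zero_any' hc σ hσ hC hB]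

include hC in
lemma comm_eq_KK' (hB : HB hc σ hσ) {x y : Γ} {a b a' b' : F} (hx : σ x = uS hc a b) (hy : σ y = uS hc a' b') :
    ⁅x, y⁆ = KK hc σ hσ a a' := by
  set u := Function.surjInv hσ (uS hc a 0) with hu
  set u' := Function.surjInv hσ (uS hc a' 0) with hu'
  have hmu : σ u = uS hc a 0 := map_surjInv σ hσ _
  have hmu' : σ u' = uS hc a' 0 := map_surjInv σ hσ _
  have hw : σ (u⁻¹ * x) = uS hc 0 b := by
    rw [map_mul, map_inv, hmu, hx, uS_split hc a b, inv_mul_cancel_left]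
  have hw' : σ (u'⁻¹ * y) = uS hc 0 b' := by
    rw [map_mul, map_inv, hmu', hy, uS_split hc a' b', inv_mul_cancel_left]
  have e1 : x = u * (u⁻¹ * x) := by group
  have e2 : y = u' * (u'⁻¹ * y) := by group
  have h1 : ⁅x, y⁆ = ⁅u, y⁆ := by
    conv_lhs => rw [e1]
    exact comm_mul_left (commute_lift' hc σ hσ hC hB hw hy)
  rw [h1]
  have h2 : ⁅u, y⁆ = ⁅u, u'⁆ := by
    conv_lhs => rw [e2]
    exact comm_mul_right (commute_lift' hc σ hσ hC hB hw' hmu)
  rw [h2]
  rfl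

include hC in
lemma commute_KK' (hB : HB hc σ hσ) (a b : F) {y : Γ} {a' b' : F} (hy : σ y = uS hc a' b') :
    Commute (KK hc σ hσ a b) y :=
  commute_lift' hc σ hσ hC hB (KK_map hc σ hσ a b) hy

include hC in
lemma KK_add_left' (hB : HB hc σ hσ) (a a' b : F) :
    KK hc σ hσ (a + a') b = KK hc σ hσ a b * KK hc σ hσ a' b := by
  set u := Function.surjInv hσ (uS hc a 0) with hu
  set u' := Function.surjInv hσ (uS hc a' 0) with hu'
  set v := Function.surjInv hσ (uS hc b 0) with hv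
  have hmu : σ u = uS hc a 0 := map_surjInv σ hσ _
  have hmu' : σ u' = uS hc a' 0 := map_surjInv σ hσ _
  have hmv : σ v = uS hc b 0 := map_surjInv σ hσ _
  have h1 : ⁅u * u', v⁆ = KK hc σ hσ (a + a') b := by
    refine comm_eq_KK' hc σ hσ hC hB (b := 0 + 0 + th m a * a') ?_ hmv
    rw [map_mul, hmu, hmu', uS_mul]
  rw [← h1]
  have h2 : ⁅u', v⁆ = KK hc σ hσ a' b := rfl
  have h3 : ⁅u, v⁆ = KK hc σ hσ a b := rfl
  rw [comm_mul_mul, h2, h3]
  · exact (commute_KK' hc σ hσ hC hB a b (KK_map hc σ hσ a' b)).symm.eq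
  · rw [h2]
    exact commute_KK' hc σ hσ hC hB a' b hmu

include hC in
lemma KK_add_right' (hB : HB hc σ hσ) (a b b' : F) :
    KK hc σ hσ a (b + b') = KK hc σ hσ a b * KK hc σ hσ a b' := by
  set u := Function.surjInv hσ (uS hc a 0) with hu
  set v := Function.surjInv hσ (uS hc b 0) with hv
  set v' := Function.surjInv hσ (uS hc b' 0) with hv'
  have hmu : σ u = uS hc a 0 := map_surjInv σ hσ _
  have hmv : σ v = uS hc b 0 := map_surjInv σ hσ _
  have hmv' : σ v' = uS hc b' 0 := map_surjInv σ hσ _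
  have h1 : ⁅u, v * v'⁆ = KK hc σ hσ a (b + b') := by
    refine comm_eq_KK' hc σ hσ hC hB (b' := 0 + 0 + th m b * b') hmu ?_
    rw [map_mul, hmv, hmv', uS_mul]
  rw [← h1]
  have h2 : ⁅u, v'⁆ = KK hc σ hσ a b' := rfl
  rw [comm_mul_mul']
  · rw [h2]
    rfl
  · rw [h2]
    exact commute_KK' hc σ hσ hC hB a b' hmv

include hC in
lemma KK_conj' (hB : HB hc σ hσ) (l : Fˣ) (a b : F) :
    Function.surjInv hσ (hS hc l) * KK hc σ hσ a b * (Function.surjInv hσ (hS hc l))⁻¹ =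
      KK hc σ hσ ((l : F) * a) ((l : F) * b) := by
  rw [KK, conj_comm]
  refine comm_eq_KK' hc σ hσ hC hB (b := (l : F) * th m (l : F) * 0) (b' := (l : F) * th m (l : F) * 0) ?_ ?_
  · rw [map_mul, map_mul, map_inv, map_surjInv, map_surjInv, hS_conj_uS]
  · rw [map_mul, map_mul, map_inv, map_surjInv, map_surjInv, hS_conj_uS]


end KKlemmas

section Main

variable {F : Type*} [Field F] [Fintype F] [CharP F 2] (hc : Ctx F 1)
variable {Γ : Type*} [Group Γ] (σ : Γ →* Sz F 1) (hσ : Function.Surjective σ)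
  (hC : σ.ker ≤ Subgroup.center Γ)

theorem th_one_eq (x : F) : th 1 x = x ^ 4 := rfl

/-- The normal form in a group generated by three commuting involutions. -/
theorem mul_form {G : Type*} [Group G] {a b c : G} (hab : Commute a b) (hac : Commute a c) (hbc : Commute b c)
    (r s t r' s' t' : ℕ) :
    a ^ r * b ^ s * c ^ t * (a ^ r' * b ^ s' * c ^ t') = a ^ (r + r') * b ^ (s + s') * c ^ (t + t') := by
  have h1 : c ^ t * a ^ r' = a ^ r' * c ^ t := (hac.pow_pow r' t).symm.eq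
  have h2 : b ^ s * a ^ r' = a ^ r' * b ^ s := (hab.pow_pow r' s).symm.eq
  have h3 : c ^ t * b ^ s' = b ^ s' * c ^ t := (hbc.pow_pow s' t).symm.eq
  calc a ^ r * b ^ s * c ^ t * (a ^ r' * b ^ s' * c ^ t')
      = a ^ r * b ^ s * (c ^ t * a ^ r') * b ^ s' * c ^ t' := by group
    _ = a ^ r * (b ^ s * a ^ r') * c ^ t * b ^ s' * c ^ t' := by rw [h1]; group
    _ = a ^ r * a ^ r' * b ^ s * (c ^ t * b ^ s') * c ^ t' := by rw [h2]; group
    _ = a ^ r * a ^ r' * (b ^ s * b ^ s') * (c ^ t * c ^ t') := by rw [h3]; group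
    _ = _ := by rw [pow_add, pow_add, pow_add]

theorem uS_zero_pow (x : F) (n : ℕ) : (uS hc 0 x) ^ n = uS hc 0 ((n : F) * x) := by
  induction n with
  | zero => simp [uS_zero]
  | succ n ih =>
    rw [pow_succ, ih, uS_mul]
    simp only [Nat.cast_add, Nat.cast_one, th_zero, zero_mul, add_zero]
    congr 1
    ring

include hC in
/-- **A vanishing form gives a trivial kernel.** -/
theorem ker_bot_of_B [Finite Γ] (hF : Fintype.card F = 8) {α : F} (hα : α ^ 3 = α + 1)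
    (hperf : commutator Γ = ⊤) (hexp : ∀ x ∈ σ.ker, x ^ 64 = 1) (hB : HB hc σ hσ) : σ.ker = ⊥ := by
  have hadd2 : ∀ x : F, x + x = 0 := CharTwo.add_self_eq_zero
  have h2F : (2 : F) = 0 := by exact_mod_cast CharP.cast_eq_zero F 2
  set K := KK hc σ hσ with hK
  have hKl : ∀ a a' b, K (a + a') b = K a b * K a' b := KK_add_left' hc σ hσ hC hB
  have hKr : ∀ a b b', K a (b + b') = K a b * K a b' := KK_add_right' hc σ hσ hC hB
  have hK0 : ∀ b, K 0 b = 1 := by
    intro b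
    have h := hKl 0 0 b
    rw [add_zero] at h
    exact (mul_eq_left.1 h.symm)
  have hK0' : ∀ a, K a 0 = 1 := by
    intro a
    have h := hKr a 0 0
    rw [add_zero] at h
    exact (mul_eq_left.1 h.symm)
  have hKsq : ∀ a b, K a b * K a b = 1 := by
    intro a b
    rw [← hKl, hadd2, hK0]
  have hKself : ∀ a, K a a = 1 := fun a => commutatorElement_self _
  have hKanti : ∀ a b, K b a = (K a b)⁻¹ := fun a b => (commutatorElement_inv _ _).symm
  have hKc : ∀ a b c d, Commute (K a b) (K c d) := fun a b c d =>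
    commute_KK' hc σ hσ hC hB a b (KK_map hc σ hσ c d)
  set κ0 := K α (α ^ 2) with hκ0
  set κ1 := K 1 (α ^ 2) with hκ1
  set κ2 := K 1 α with hκ2
  have h01 : Commute κ0 κ1 := hKc _ _ _ _
  have h02 : Commute κ0 κ2 := hKc _ _ _ _
  have h12 : Commute κ1 κ2 := hKc _ _ _ _
  let W : Subgroup Γ := Subgroup.closure {κ0, κ1, κ2}
  have hnorm : ∀ z ∈ W, ∃ r s t : ℕ, z = κ0 ^ r * κ1 ^ s * κ2 ^ t := by
    intro z hz
    induction hz using Subgroup.closure_induction with
    | mem x hx =>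
      rcases hx with rfl | rfl | rfl
      · exact ⟨1, 0, 0, by simp⟩
      · exact ⟨0, 1, 0, by simp⟩
      · exact ⟨0, 0, 1, by simp⟩
    | one => exact ⟨0, 0, 0, by simp⟩
    | mul x y _ _ hx hy =>
      obtain ⟨r, s, t, rfl⟩ := hx
      obtain ⟨r', s', t', rfl⟩ := hy
      exact ⟨_, _, _, mul_form h01 h02 h12 _ _ _ _ _ _⟩
    | inv x _ hx =>
      obtain ⟨r, s, t, rfl⟩ := hx
      refine ⟨r, s, t, ?_⟩
      apply inv_eq_of_mul_eq_one_right
      rw [mul_form h01 h02 h12, ← two_mul, ← two_mul, ← two_mul, pow_mul, pow_mul, pow_mul, pow_two, pow_two, pow_two]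
      rw [hKsq, hKsq, hKsq]
      simp
  have hκ0W : κ0 ∈ W := Subgroup.subset_closure (by simp)
  have hκ1W : κ1 ∈ W := Subgroup.subset_closure (by simp)
  have hκ2W : κ2 ∈ W := Subgroup.subset_closure (by simp)
  have hKmem1 : ∀ b, K 1 b ∈ W := by
    refine span_ind hα hF _ ?_ ?_ ?_ ?_ ?_
    · rw [hK0']
      exact W.one_mem
    · intro x y hx hy
      rw [hKr]
      exact W.mul_mem hx hy
    · rw [hKself]
      exact W.one_mem
    · exact hκ2W
    · exact hκ1W
  have hKmem2 : ∀ b, K α b ∈ W := by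
    refine span_ind hα hF _ ?_ ?_ ?_ ?_ ?_
    · rw [hK0']
      exact W.one_mem
    · intro x y hx hy
      rw [hKr]
      exact W.mul_mem hx hy
    · rw [hKanti 1 α]
      exact W.inv_mem hκ2W
    · rw [hKself]
      exact W.one_mem
    · exact hκ0W
  have hKmem3 : ∀ b, K (α ^ 2) b ∈ W := by
    refine span_ind hα hF _ ?_ ?_ ?_ ?_ ?_
    · rw [hK0']
      exact W.one_mem
    · intro x y hx hy
      rw [hKr]
      exact W.mul_mem hx hy
    · rw [hKanti 1 (α ^ 2)]
      exact W.inv_mem hκ1W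
    · rw [hKanti α (α ^ 2)]
      exact W.inv_mem hκ0W
    · rw [hKself]
      exact W.one_mem
  have hKmem : ∀ a b, K a b ∈ W := by
    intro a b
    refine span_ind hα hF (fun a => K a b ∈ W) ?_ ?_ ?_ ?_ ?_ a
    · show K 0 b ∈ W
      rw [hK0]
      exact W.one_mem
    · intro x y hx hy
      show K (x + y) b ∈ W
      rw [hKl]
      exact W.mul_mem hx hy
    · exact hKmem1 b
    · exact hKmem2 b
    · exact hKmem3 b
  -- the commutators
  set Pt : Subgroup Γ := (Usub hc).comap σ with hPt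
  have hle : (commutator Pt).map Pt.subtype ≤ W := by
    rw [Subgroup.map_le_iff_le_comap, _root_.commutator_def, Subgroup.commutator_le]
    rintro ⟨x, hx⟩ - ⟨y, hy⟩ -
    obtain ⟨a, b, hab⟩ := hx
    obtain ⟨a', b', hab'⟩ := hy
    have e := comm_eq_KK' hc σ hσ hC hB hab hab'
    show ⁅x, y⁆ ∈ W
    rw [e]
    exact hKmem a a'
  -- the images
  have hmap : ∀ a b, σ (K a b) = uS hc 0 (th 1 a * b + th 1 b * a) := KK_map hc σ hσ
  have hv0 : th 1 α * α ^ 2 + th 1 (α ^ 2) * α = 1 := by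
    rw [th_one_eq, th_one_eq]
    linear_combination (3 + 3 * α + α ^ 2 + 2 * α ^ 3 + α ^ 4 + α ^ 6) * hα + (1 + 3 * α + 2 * α ^ 2) * h2F
  have hv1 : th 1 (1 : F) * α ^ 2 + th 1 (α ^ 2) * 1 = α ^ 2 + α := by
    rw [th_one_eq, th_one_eq]
    linear_combination (2 + α + α ^ 2 + α ^ 3 + α ^ 5) * hα + (1 + α + α ^ 2) * h2F
  have hv2 : th 1 (1 : F) * α + th 1 α * 1 = α ^ 2 := by
    rw [th_one_eq, th_one_eq]
    linear_combination α * hα + α * h2F
  rw [eq_bot_iff]
  intro z hz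
  rw [Subgroup.mem_bot]
  -- `z` lies in the commutator subgroup of the preimage
  have hcop : Nat.Coprime (orderOf z) Pt.index := by
    have h1 : orderOf z ∣ 2 ^ 6 := orderOf_dvd_of_pow_eq_one (hexp z hz)
    refine Nat.Coprime.coprime_dvd_left h1 (Nat.Coprime.pow_left _ ?_)
    rw [hPt, Subgroup.index_comap_of_surjective _ hσ]
    exact (Nat.coprime_two_left).2 (odd_index_Usub hc)
  have hz2 := Cfsg.Agent.Lib.Schur.Stem.mem_commutator_of_coprime Pt (hC hz) (by rw [hperf]; exact Subgroup.mem_top z) hcop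
  obtain ⟨r, s, t, rfl⟩ := hnorm z (hle hz2)
  have hz1 : σ (κ0 ^ r * κ1 ^ s * κ2 ^ t) = 1 := hz
  rw [map_mul, map_mul, map_pow, map_pow, map_pow, hκ0, hκ1, hκ2, hmap, hmap, hmap, hv0, hv1, hv2, uS_zero_pow,
    uS_zero_pow, uS_zero_pow, uS_mul, uS_mul, ← uS_zero hc] at hz1
  have hz3 := (uS_injective hc hz1).2
  simp only [th_zero, zero_mul, add_zero, zero_add, add_zero] at hz3
  have hz4 : ((r : ℕ) : F) + ((s : ℕ) : F) * α + ((s + t : ℕ) : F) * α ^ 2 = 0 := by
    push_cast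
    linear_combination hz3
  obtain ⟨⟨r', rfl⟩, ⟨s', rfl⟩, hst⟩ := indep hα hz4
  obtain ⟨t', rfl⟩ : 2 ∣ t := (Nat.dvd_add_right (Dvd.intro _ rfl)).1 hst
  rw [pow_mul, pow_mul, pow_mul, pow_two, pow_two, pow_two, hKsq, hKsq, hKsq]
  simp

end Main

section Two

variable {F : Type*} [Field F] [Fintype F] [CharP F 2] (hc : Ctx F 1)

include hc

omit hc in
/-- The Hall-Witt identity. -/
theorem hall_witt {G : Type*} [Group G] (a b c : G) :
    ⁅⁅a, b⁆, b * c * b⁻¹⁆ * ⁅⁅b, c⁆, c * a * c⁻¹⁆ * ⁅⁅c, a⁆, a * b * a⁻¹⁆ = 1 := by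
  simp only [commutatorElement_def]
  group

/-- Conjugates keep the first coordinate. -/
theorem uS_conj_form (a b c c' : F) : ∃ w, uS hc a b * uS hc c c' * (uS hc a b)⁻¹ = uS hc c w := by
  refine ⟨th 1 a * c + th 1 c * a + c' + th 1 0 * c, ?_⟩
  have h1 : uS hc a b * uS hc c c' * (uS hc a b)⁻¹ = ⁅uS hc a b, uS hc c c'⁆ * uS hc c c' := by
    simp only [commutatorElement_def]
    group
  rw [h1, uS_comm_formula, uS_mul, zero_add]

/-- **The `2`-part of the multiplier of `Sz(8)`.** -/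
theorem two_part (hF : Fintype.card F = 8) {Y : Type*} [Group Y] [Finite Y] (f : Y →* Sz F 1)
    (hf : Function.Surjective f) (hK : f.ker ≤ Subgroup.center Y) (hp : commutator Y = ⊤)
    (hM : ∀ x ∈ f.ker, x ^ 64 = 1) :
    ∃ c₁ ∈ f.ker, ∃ c₂ ∈ f.ker, c₁ ^ 2 = 1 ∧ c₂ ^ 2 = 1 ∧ ∀ x ∈ f.ker, ∃ s t : ℕ, x = c₁ ^ s * c₂ ^ t := by
  obtain ⟨α, hα⟩ := exists_root hF
  have h2F : (2 : F) = 0 := by exact_mod_cast CharP.cast_eq_zero F 2
  set k : F → Y := fun x => cf f hf (uS hc 0 x) (uS hc 1 0) with hk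
  have hk_add : ∀ x y, k (x + y) = k x * k y := fun x y => B_add_left hc f hf hK x y 1
  have hk0 : k 0 = 1 := by
    have h := hk_add 0 0
    rw [add_zero] at h
    exact mul_eq_left.1 h.symm
  have hksq : ∀ x, k x * k x = 1 := by
    intro x
    rw [← hk_add, CharTwo.add_self_eq_zero, hk0]
  have hkmem : ∀ x, k x ∈ f.ker := fun x => cf_mem_ker f hf (commute_zero hc _ _ _)
  have hseven : ∀ a : F, a ≠ 0 → a ^ 7 = 1 := by
    intro a ha
    have h1 : a ^ 8 = a := by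
      rw [← hF]
      exact FiniteField.pow_card a
    have h2 : a ^ 7 * a = 1 * a := by
      rw [one_mul, ← pow_succ]
      exact h1
    exact mul_right_cancel₀ ha h2
  have hgen : ∀ x a, cf f hf (uS hc 0 x) (uS hc a 0) = k (x * a ^ 2) := by
    intro x a
    by_cases ha : a = 0
    · subst ha
      rw [cf_zero_zero hc f hf hK]
      simp [hk0]
    · have h := B_inv hc f hf hK (Units.mk0 a ha) (x * a ^ 2) 1
      simp only [Units.val_mk0, mul_one] at h
      have e : a * th 1 a * (x * a ^ 2) = x := by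
        rw [th_one_eq]
        linear_combination x * hseven a ha
      rw [e] at h
      exact h
  have hk1 : k 1 = 1 := by
    have hterm : ∀ (x y z : Y) (a b c : F), f x = uS hc a 0 → f y = uS hc b 0 → f z = uS hc c 0 →
        ⁅⁅x, y⁆, y * z * y⁻¹⁆ = k ((th 1 a * b + th 1 b * a) * c ^ 2) := by
      intro x y z a b c hx hy hz
      have h1 : f ⁅x, y⁆ = uS hc 0 (th 1 a * b + th 1 b * a) := by
        rw [map_commutatorElement, hx, hy, uS_comm_formula]
      obtain ⟨w, hw⟩ := uS_conj_form hc b 0 c 0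
      have h2 : f (y * z * y⁻¹) = uS hc c w := by
        rw [map_mul, map_mul, map_inv, hy, hz, hw]
      rw [cf_eq f hf hK h1 h2, cf_zero_eq hc f hf hK, hgen]
    obtain ⟨x, hx⟩ := hf (uS hc 1 0)
    obtain ⟨y, hy⟩ := hf (uS hc α 0)
    obtain ⟨z, hz⟩ := hf (uS hc (α ^ 2) 0)
    have h := hall_witt x y z
    rw [hterm x y z _ _ _ hx hy hz, hterm y z x _ _ _ hy hz hx, hterm z x y _ _ _ hz hx hy, ← hk_add, ← hk_add] at h
    have e : (th 1 1 * α + th 1 α * 1) * (α ^ 2) ^ 2 + (th 1 α * α ^ 2 + th 1 (α ^ 2) * α) * 1 ^ 2 +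
        (th 1 (α ^ 2) * 1 + th 1 1 * α ^ 2) * α ^ 2 = 1 := by
      rw [th_one_eq, th_one_eq, th_one_eq]
      linear_combination (9 + 7 * α + 5 * α ^ 2 + 4 * α ^ 3 + 2 * α ^ 4 + 2 * α ^ 5 + α ^ 6 + α ^ 7) * hα +
        (4 + 8 * α + 6 * α ^ 2) * h2F
    rwa [e] at h
  let A : Subgroup Y :=
    { carrier := Set.range k
      mul_mem' := by
        rintro _ _ ⟨x, rfl⟩ ⟨y, rfl⟩
        exact ⟨x + y, hk_add x y⟩
      one_mem' := ⟨0, hk0⟩
      inv_mem' := by
        rintro _ ⟨x, rfl⟩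
        exact ⟨x, eq_inv_of_mul_eq_one_left (hksq x)⟩ }
  have hAc : A ≤ Subgroup.center Y := by
    rintro _ ⟨x, rfl⟩
    exact hK (hkmem x)
  haveI hAn : A.Normal := ⟨fun n hn g => by
    rw [Subgroup.mem_center_iff.1 (hAc hn) g]
    simpa using hn⟩
  have hAk : A ≤ f.ker := by
    rintro _ ⟨x, rfl⟩
    exact hkmem x
  let g : Y ⧸ A →* Sz F 1 := QuotientGroup.lift A f hAk
  have hg : Function.Surjective g := by
    intro u
    obtain ⟨y, hy⟩ := hf u
    exact ⟨QuotientGroup.mk y, hy⟩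
  have hgC : g.ker ≤ Subgroup.center (Y ⧸ A) := by
    intro q hq
    obtain ⟨y, rfl⟩ := QuotientGroup.mk_surjective q
    have h1 : y ∈ f.ker := hq
    rw [Subgroup.mem_center_iff]
    intro q'
    obtain ⟨y', rfl⟩ := QuotientGroup.mk_surjective q'
    show ((y' * y : Y) : Y ⧸ A) = ((y * y' : Y) : Y ⧸ A)
    rw [Subgroup.mem_center_iff.1 (hK h1) y']
  have hperf : commutator (Y ⧸ A) = ⊤ :=
    Cfsg.Agent.Lib.SchurCert.Upper.commutator_eq_top_of_surj (QuotientGroup.mk' A) (QuotientGroup.mk'_surjective A) hp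
  have hexp : ∀ x ∈ g.ker, x ^ 64 = 1 := by
    intro q hq
    obtain ⟨y, rfl⟩ := QuotientGroup.mk_surjective q
    have h1 : y ∈ f.ker := hq
    show ((y ^ 64 : Y) : Y ⧸ A) = 1
    rw [hM y h1]
    rfl
  have hB : HB hc g hg := by
    intro b a
    obtain ⟨x, hx⟩ := hf (uS hc 0 b)
    obtain ⟨y, hy⟩ := hf (uS hc a 0)
    have h1 : g (x : Y ⧸ A) = uS hc 0 b := hx
    have h2 : g (y : Y ⧸ A) = uS hc a 0 := hy
    rw [← cf_eq g hg hgC h1 h2]
    show ((⁅x, y⁆ : Y) : Y ⧸ A) = 1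
    rw [QuotientGroup.eq_one_iff, cf_eq f hf hK hx hy, hgen]
    exact ⟨_, rfl⟩
  have hbot := ker_bot_of_B hc g hg hgC hF hα hperf hexp hB
  have hval : ∀ x ∈ f.ker, ∃ y, x = k y := by
    intro x hx
    have h1 : (x : Y ⧸ A) ∈ g.ker := hx
    rw [hbot, Subgroup.mem_bot, QuotientGroup.eq_one_iff] at h1
    obtain ⟨y, rfl⟩ := h1
    exact ⟨y, rfl⟩
  refine ⟨k α, hkmem α, k (α ^ 2), hkmem _, by rw [pow_two, hksq], by rw [pow_two, hksq], ?_⟩
  intro x hx
  obtain ⟨y, rfl⟩ := hval x hx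
  refine span_ind hα hF (fun y => ∃ s t : ℕ, k y = k α ^ s * k (α ^ 2) ^ t) ?_ ?_ ?_ ?_ ?_ y
  · exact ⟨0, 0, by simpa using hk0⟩
  · rintro a b ⟨s, t, h1⟩ ⟨s', t', h2⟩
    refine ⟨s + s', t + t', ?_⟩
    have hcomm : Commute (k (α ^ 2)) (k α) := Subgroup.mem_center_iff.1 (hK (hkmem _)) _
    have h3 : k (α ^ 2) ^ t * k α ^ s' = k α ^ s' * k (α ^ 2) ^ t := (hcomm.pow_pow t s').eq
    rw [hk_add, h1, h2, pow_add, pow_add]
    calc k α ^ s * k (α ^ 2) ^ t * (k α ^ s' * k (α ^ 2) ^ t')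
        = k α ^ s * (k (α ^ 2) ^ t * k α ^ s') * k (α ^ 2) ^ t' := by group
      _ = k α ^ s * (k α ^ s' * k (α ^ 2) ^ t) * k (α ^ 2) ^ t' := by rw [h3]
      _ = _ := by group
  · exact ⟨0, 0, by simpa using hk1⟩
  · exact ⟨1, 0, by simp⟩
  · exact ⟨0, 1, by simp⟩

end Two

section Final

open Cfsg.Agent.Lib.SzIso.Basic Cfsg.Agent.Lib.SchurCert.Upper Cfsg.Agent.Lib.Schur.Stem

universe u

/-- **The upper bound for `Sz(8)`.** -/
theorem upper {F : Type u} [Field F] [Fintype F] (hF : Fintype.card F = 8) (Γ : Type u) [Group Γ] [Finite Γ]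
    (σ : Γ →* ↥(Lie.Sz F 4)) (hσ : IsStemExtension σ) :
    ∃ π : Multiplicative (ZMod 2 × ZMod 2) →* σ.ker, Function.Surjective π := by
  have hF' : Fintype.card F = 2 ^ (2 * 1 + 1) := by rw [hF]; norm_num
  have hc : Ctx F 1 := ctx_of_card le_rfl hF'
  haveI hch : CharP F 2 := charP_two_of_card hF'
  let e : Cfsg.Sz F 1 ≃* ↥(Lie.Sz F 4) := equivSz hc
  have hcard : Nat.card ↥(Lie.Sz F 4) = 29120 := by
    have h := card_LieSz (m := 1) le_rfl hF'
    norm_num at h
    exact h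
  have hperf : commutator ↥(Lie.Sz F 4) = ⊤ :=
    commutator_eq_top_of_surj e.toMonoidHom e.surjective (Cfsg.Agent.Lib.Suzuki.Simple.commutator_eq_top hc)
  have hne : Nat.card ↥(Lie.Sz F 4) ≠ 0 := by rw [hcard]; norm_num
  have hodd : ∀ (p : ℕ) [Fact p.Prime], p ∣ 455 →
      ∃ S : Sylow p ↥(Lie.Sz F 4), StemBound.{u} (S : Subgroup ↥(Lie.Sz F 4)) 1 := by
    intro p hp hd
    have hp' := hp.out
    have h3 : p = 5 ∨ p = 7 ∨ p = 13 := by
      have e : (455 : ℕ) = 5 * (7 * 13) := by norm_num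
      rw [e] at hd
      rcases (Nat.Prime.dvd_mul hp').1 hd with h | h
      · exact Or.inl ((Nat.prime_dvd_prime_iff_eq hp' (by norm_num)).1 h)
      rcases (Nat.Prime.dvd_mul hp').1 h with h | h
      · exact Or.inr (Or.inl ((Nat.prime_dvd_prime_iff_eq hp' (by norm_num)).1 h))
      · exact Or.inr (Or.inr ((Nat.prime_dvd_prime_iff_eq hp' (by norm_num)).1 h))
    rcases h3 with rfl | rfl | rfl <;> exact sylow_bound hne (Or.inl (by rw [hcard]; norm_num)) (by norm_num)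
  obtain ⟨π, hπ⟩ := exists_surj_of_stem hσ (E := 64) (m := 455) (d := 2) (n := 1) (by norm_num)
    (by rw [hcard]) hperf squarefree_one hodd (by
      intro Y _ _ f hf hK hp hM
      have hker : (e.symm.toMonoidHom.comp f).ker = f.ker := by
        ext x
        simp only [MonoidHom.mem_ker, MonoidHom.comp_apply]
        exact e.symm.map_eq_one_iff
      have hf' : Function.Surjective (e.symm.toMonoidHom.comp f) := e.symm.surjective.comp hf
      obtain ⟨c₁, h₁, c₂, h₂, h3, h4, h5⟩ := two_part hc hF (e.symm.toMonoidHom.comp f) hf'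
        (by rw [hker]; exact hK) hp (by rw [hker]; exact hM)
      rw [hker] at h₁ h₂
      refine ⟨c₁, h₁, c₂, h₂, h3, h4, ?_⟩
      intro x hx
      exact h5 x (by rw [hker]; exact hx))
  let ι : Multiplicative (ZMod 2 × ZMod 2) ≃* Multiplicative (ZMod 1 × ZMod 2 × ZMod 2) :=
    { toFun := fun x => Multiplicative.ofAdd ((0 : ZMod 1), Multiplicative.toAdd x)
      invFun := fun x => Multiplicative.ofAdd (Multiplicative.toAdd x).2
      left_inv := fun _ => rfl
      right_inv := fun x => by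
        show Multiplicative.ofAdd ((0 : ZMod 1), (Multiplicative.toAdd x).2) = x
        have : (0 : ZMod 1) = (Multiplicative.toAdd x).1 := Subsingleton.elim _ _
        rw [this]
        rfl
      map_mul' := fun x y => by
        show Multiplicative.ofAdd ((0 : ZMod 1), _) = Multiplicative.ofAdd (((0 : ZMod 1) + 0), _)
        rw [add_zero]
        rfl }
  exact ⟨π.comp ι.toMonoidHom, hπ.comp ι.surjective⟩

end Final

end Cfsg.Agent.Lib.SchurCert.Sz8.Upper
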