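import Cfsg.Agent.Lib.SchurCert.Sz8.Check

/-!
# The certificate of the central extension of `Sz(8)`
-/

set_option autoImplicit false

namespace Cfsg.Agent.Lib.SchurCert.Sz8.Cert

open Cfsg.Agent.Lib.SchurCert.Elim Cfsg.Agent.Lib.SchurCert.Sz8.Data Cfsg.Agent.Lib.SchurCert.Bits
open Cfsg.Agent.Lib.SchurCert.Sz8.Defs Cfsg.Agent.Lib.SchurCert.Sz8.Check

theorem vert_unfold {v : Nat} (hv : v < nV) : edgeC v 0 = true ∧ edgeC v 1 = true ∧ treeC v = true := by
  have h := vert_spec v hv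
  have h1 : Nat.blt v nV = true := Nat.blt_eq.mpr hv
  simp only [vertC, h1, Bool.not_true, Bool.false_or, Bool.and_eq_true] at h
  obtain ⟨⟨a, b⟩, c⟩ := h
  exact ⟨a, b, c⟩

theorem edge_spec {v g : Nat} (hv : v < nV) (hg : g < 2) : edgeC v g = true := by
  obtain ⟨a, b, -⟩ := vert_unfold hv
  have hg' : g = 0 ∨ g = 1 := by omega
  rcases hg' with rfl | rfl
  · exact a
  · exact b

theorem edge_unfold {v g : Nat} (hv : v < nV) (hg : g < 2) :
    nxF v g < nV ∧ rxF v g < nV ∧ nxF (nxF (nxF (nxF (nxF v g) g) g) g) g = v ∧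
    addC (kcF v g) (addC (kcF (nxF v g) g) (addC (kcF (nxF (nxF v g) g) g)
      (addC (kcF (nxF (nxF (nxF v g) g) g) g) (kcF (nxF (nxF (nxF (nxF v g) g) g) g) g)))) = 0 ∧
    rxF (nxF v g) 0 = nxF (rxF v 0) g ∧ rxF (nxF v g) 1 = nxF (rxF v 1) g ∧
    addC (kcF v g) (lcF (nxF v g) 0) = addC (lcF v 0) (kcF (rxF v 0) g) ∧
    addC (kcF v g) (lcF (nxF v g) 1) = addC (lcF v 1) (kcF (rxF v 1) g) ∧
    eqM (genC g) (codeT v) (codeT (nxF v g)) = true := by
  have h := edge_spec hv hg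
  simp only [edgeC, Bool.and_eq_true] at h
  obtain ⟨⟨⟨⟨⟨⟨⟨⟨a, b⟩, c⟩, d⟩, e⟩, f⟩, i⟩, j⟩, k⟩ := h
  exact ⟨Nat.blt_eq.mp a, Nat.blt_eq.mp b, Nat.eq_of_beq_eq_true c, Nat.eq_of_beq_eq_true d,
    Nat.eq_of_beq_eq_true e, Nat.eq_of_beq_eq_true f, Nat.eq_of_beq_eq_true i, Nat.eq_of_beq_eq_true j, k⟩

theorem tree_unfold {v : Nat} (h0 : 0 < v) (hv : v < nV) :
    parV parF v < v ∧ nxF (parV parF v) (pgV parF v) = v ∧ parV rpF v < nV ∧ rxF (parV rpF v) (pgV rpF v) = v ∧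
      rrF (parV rpF v) < rrF v ∧ isOne (codeT v) = false := by
  obtain ⟨-, -, h⟩ := vert_unfold hv
  have h1 : Nat.beq v 0 = false := by
    cases h2 : Nat.beq v 0
    · rfl
    · have := Nat.eq_of_beq_eq_true h2
      omega
  simp only [treeC, h1, Bool.false_or, Bool.and_eq_true, Bool.not_eq_true'] at h
  obtain ⟨⟨⟨⟨⟨a, b⟩, c⟩, d⟩, e⟩, f⟩ := h
  exact ⟨Nat.blt_eq.mp a, Nat.eq_of_beq_eq_true b, Nat.blt_eq.mp c, Nat.eq_of_beq_eq_true d, Nat.blt_eq.mp e, f⟩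

/-- The abelian group of the cover. -/
abbrev A2 : Type := Multiplicative (ZMod 2 × ZMod 2)

/-- The element of a code. -/
def decC (a : Nat) : A2 := Multiplicative.ofAdd (((a : Nat) : ZMod 2), ((a / 2 : Nat) : ZMod 2))

theorem addC_eq (a b : Nat) : addC a b = (a % 2 + b % 2) % 2 + 2 * ((a / 2 + b / 2) % 2) := rfl

theorem decC_add (a b : Nat) : decC (addC a b) = decC a * decC b := by
  unfold decC
  have h4 : ((2 : Nat) : ZMod 2) = 0 := by decide
  have hc : ∀ x : Nat, ((x % 2 : Nat) : ZMod 2) = (x : ZMod 2) := fun x => ZMod.natCast_mod x 2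
  have h1 : ((addC a b : Nat) : ZMod 2) = ((a : Nat) : ZMod 2) + ((b : Nat) : ZMod 2) := by
    rw [addC_eq, Nat.cast_add, Nat.cast_mul, h4, zero_mul, add_zero, hc, Nat.cast_add, hc, hc]
  have h2 : addC a b / 2 = (a / 2 + b / 2) % 2 := by
    rw [addC_eq]
    omega
  have h3 : ((addC a b / 2 : Nat) : ZMod 2) = ((a / 2 : Nat) : ZMod 2) + ((b / 2 : Nat) : ZMod 2) := by
    rw [h2, hc, Nat.cast_add]
  rw [h1, h3]
  rfl

/-- The certificate of the central extension. -/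
theorem coverCert : Cover.Cert (A := A2) nV nxF rxF kcF lcF rpF rrF addC 0 decC (fun _ => 5) where
  hnV := by decide
  nx_lt := fun v g hv hg => (edge_unfold hv hg).1
  rx_lt := fun v g hv hg => (edge_unfold hv hg).2.1
  dec_add := decC_add
  dec_id := rfl
  comm := by
    intro v g h hv hg hh
    obtain ⟨-, -, -, -, a, b, c, d, -⟩ := edge_unfold hv hg
    have hh' : h = 0 ∨ h = 1 := by omega
    rcases hh' with rfl | rfl
    · exact ⟨a, c⟩
    · exact ⟨b, d⟩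
  ord_pos := fun _ _ => by norm_num
  ord := by
    intro v g hv hg
    obtain ⟨-, -, a, b, -⟩ := edge_unfold hv hg
    refine ⟨a, ?_⟩
    have e : Cover.wAdd nxF addC 0 kcF (List.replicate 5 g) v =
      addC (kcF v g) (addC (kcF (nxF v g) g) (addC (kcF (nxF (nxF v g) g) g)
        (addC (kcF (nxF (nxF (nxF v g) g) g) g) (addC (kcF (nxF (nxF (nxF (nxF v g) g) g) g) g) 0)))) := rfl
    rw [e, decC_add, decC_add, decC_add, decC_add, decC_add]
    have h1 := congrArg decC b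
    rw [decC_add, decC_add, decC_add, decC_add] at h1
    have h2 : decC 0 = 1 := rfl
    rw [h2] at h1 ⊢
    rw [mul_one, h1]
  rtree := by
    intro v h0 hv
    obtain ⟨-, -, a, b, c, -⟩ := tree_unfold h0 hv
    exact ⟨a, b, c⟩

end Cfsg.Agent.Lib.SchurCert.Sz8.Cert
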