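import Cfsg.Agent.Lib.SchurCert.Sz8.Defs

/-!
# The kernel checks for `Sz(8)`
-/

set_option autoImplicit false

namespace Cfsg.Agent.Lib.SchurCert.Sz8.Check

open Cfsg.Agent.Lib.SchurCert.Elim Cfsg.Agent.Lib.SchurCert.Sz8.Data Cfsg.Agent.Lib.SchurCert.Bits
open Cfsg.Agent.Lib.SchurCert.Sz8.Defs

theorem vert_0 : allB vertC 12 0 = true := by decide +kernel
theorem vert_1 : allB vertC 12 4096 = true := by decide +kernel
theorem vert_2 : allB vertC 12 8192 = true := by decide +kernel
theorem vert_3 : allB vertC 12 12288 = true := by decide +kernel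
theorem vert_4 : allB vertC 12 16384 = true := by decide +kernel
theorem vert_5 : allB vertC 12 20480 = true := by decide +kernel
theorem vert_6 : allB vertC 12 24576 = true := by decide +kernel
theorem vert_7 : allB vertC 12 28672 = true := by decide +kernel

theorem vert_spec (v : Nat) (hv : v < nV) : vertC v = true := by
  have hn : nV = 29120 := rfl
  rw [hn] at hv
  refine allB_chunks (d := 12) (n := 29120) ?_ v hv
  intro i hi
  have h2 : (2 : Nat) ^ 12 = 4096 := rfl
  rw [h2] at hi ⊢
  have hi' : i < 8 := by omega
  interval_cases i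
  · exact vert_0
  · exact vert_1
  · exact vert_2
  · exact vert_3
  · exact vert_4
  · exact vert_5
  · exact vert_6
  · exact vert_7

end Cfsg.Agent.Lib.SchurCert.Sz8.Check
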