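import Cfsg.Agent.Lib.SchurCert.Sz8.Cert
import Cfsg.Agent.Lib.SzIso.Basic

/-!
# The group `Sz(8)` as a Cayley graph
-/

set_option autoImplicit false

namespace Cfsg.Agent.Lib.SchurCert.Sz8.Group

open Cfsg Cfsg.Lie Cfsg.Agent.Lib.SchurCert.Elim Cfsg.Agent.Lib.SchurCert.Lift Cfsg.Agent.Lib.SchurCert.Sz8.Data
open Cfsg.Agent.Lib.SchurCert.Bits Cfsg.Agent.Lib.SchurCert.F8
open Cfsg.Agent.Lib.SchurCert.Sz8.Defs Cfsg.Agent.Lib.SchurCert.Sz8.Cert
open Cfsg.Agent.Lib.SchurCert.Cover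
open Matrix Subgroup

/-- The matrix of a code. -/
def Mx {F : Type*} [Field F] (α : F) (c : Nat) : Matrix (Fin 4) (Fin 4) F :=
  Matrix.of fun i j => emN α (dig c (4 * i.val + j.val))

theorem dig_lt (c i : Nat) : dig c i < 8 := by
  have h : Nat.land (Nat.shiftRight c (Nat.mul 3 i)) 7 ≤ 7 := Nat.and_le_right
  exact Nat.lt_succ_of_le h

theorem mul8_lt (a b : Nat) : mul8 a b < 8 := by
  have h : Nat.land (Nat.shiftRight 0x73157889d3f0cfa868356ee0467b98bcbd10fac688000000 (Nat.mul 3 (Nat.add (Nat.mul 8 a) b))) 7 ≤ 7 :=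
    Nat.and_le_right
  exact Nat.lt_succ_of_le h

theorem xor_lt {a b : Nat} (ha : a < 8) (hb : b < 8) : Nat.xor a b < 8 :=
  (xor_spec ⟨a, ha⟩ ⟨b, hb⟩).1

theorem eqM_gen (g : Nat) : eqM (genC g) (gen4C g) oneC = true ∧ eqM (gen4C g) (genC g) oneC = true := by
  unfold genC gen4C
  cases Nat.beq g 0 <;> decide +kernel

theorem code_zero : codeT 0 = oneC := by decide +kernel

section Field

variable {F : Type*} [Field F] [CharP F 2] {α : F} (hα : α ^ 3 = α + 1)

include hα

theorem emN_mul' (a b : Nat) (i j : Nat) : emN α (mul8 (dig a i) (dig b j)) = emN α (dig a i) * emN α (dig b j) :=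
  emN_mul hα (dig_lt _ _) (dig_lt _ _)

theorem entC_spec {A X Y a0 a1 a2 a3 x0 x1 x2 x3 y : Nat} (h : entC A X Y a0 a1 a2 a3 x0 x1 x2 x3 y = true) :
    emN α (dig A a0) * emN α (dig X x0) + (emN α (dig A a1) * emN α (dig X x1) +
      (emN α (dig A a2) * emN α (dig X x2) + emN α (dig A a3) * emN α (dig X x3))) = emN α (dig Y y) := by
  have h1 := Nat.eq_of_beq_eq_true h
  rw [← h1, emN_xor hα (mul8_lt _ _) (xor_lt (mul8_lt _ _) (xor_lt (mul8_lt _ _) (mul8_lt _ _))),
    emN_xor hα (mul8_lt _ _) (xor_lt (mul8_lt _ _) (mul8_lt _ _)), emN_xor hα (mul8_lt _ _) (mul8_lt _ _),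
    emN_mul' hα, emN_mul' hα, emN_mul' hα, emN_mul' hα]

theorem Mx_mul {A X Y : Nat} (h : eqM A X Y = true) : Mx α A * Mx α X = Mx α Y := by
  simp only [eqM, Bool.and_eq_true] at h
  obtain ⟨⟨⟨⟨⟨⟨⟨⟨⟨⟨⟨⟨⟨⟨⟨h0, h1⟩, h2⟩, h3⟩, h4⟩, h5⟩, h6⟩, h7⟩, h8⟩, h9⟩, h10⟩, h11⟩, h12⟩, h13⟩, h14⟩, h15⟩ := h
  ext i j
  rw [Matrix.mul_apply, Fin.sum_univ_four, add_assoc, add_assoc]
  fin_cases i <;> fin_cases j
  · exact entC_spec hα h0
  · exact entC_spec hα h1
  · exact entC_spec hα h2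
  · exact entC_spec hα h3
  · exact entC_spec hα h4
  · exact entC_spec hα h5
  · exact entC_spec hα h6
  · exact entC_spec hα h7
  · exact entC_spec hα h8
  · exact entC_spec hα h9
  · exact entC_spec hα h10
  · exact entC_spec hα h11
  · exact entC_spec hα h12
  · exact entC_spec hα h13
  · exact entC_spec hα h14
  · exact entC_spec hα h15

omit hα in
theorem emN_zero : emN α 0 = 0 := by simp [emN]

omit hα in
theorem emN_one : emN α 1 = 1 := by simp [emN]

omit hα in
theorem Mx_one : Mx α oneC = 1 := by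
  ext i j
  fin_cases i <;> fin_cases j <;> simp only [Mx, Matrix.of_apply, Matrix.one_apply] <;>
    first
    | (show emN α 1 = _
       rw [emN_one]
       simp)
    | (show emN α 0 = _
       rw [emN_zero]
       simp)

theorem isOne_of {c : Nat} (h : Mx α c = 1) : isOne c = true := by
  have key : ∀ i j : Fin 4, dig c (4 * i.val + j.val) = if i = j then 1 else 0 := by
    intro i j
    have h1 : Mx α c i j = (1 : Matrix (Fin 4) (Fin 4) F) i j := by rw [h]
    simp only [Mx, Matrix.of_apply, Matrix.one_apply] at h1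
    apply emN_injective hα (dig_lt _ _) (by split_ifs <;> norm_num)
    rw [h1]
    split_ifs
    · exact emN_one.symm
    · exact emN_zero.symm
  have k0 : dig c 0 = 1 := key 0 0
  have k1 : dig c 1 = 0 := key 0 1
  have k2 : dig c 2 = 0 := key 0 2
  have k3 : dig c 3 = 0 := key 0 3
  have k4 : dig c 4 = 0 := key 1 0
  have k5 : dig c 5 = 1 := key 1 1
  have k6 : dig c 6 = 0 := key 1 2
  have k7 : dig c 7 = 0 := key 1 3
  have k8 : dig c 8 = 0 := key 2 0
  have k9 : dig c 9 = 0 := key 2 1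
  have k10 : dig c 10 = 1 := key 2 2
  have k11 : dig c 11 = 0 := key 2 3
  have k12 : dig c 12 = 0 := key 3 0
  have k13 : dig c 13 = 0 := key 3 1
  have k14 : dig c 14 = 0 := key 3 2
  have k15 : dig c 15 = 1 := key 3 3
  unfold isOne
  rw [k0, k1, k2, k3, k4, k5, k6, k7, k8, k9, k10, k11, k12, k13, k14, k15]
  rfl

theorem Mx_gen_mul (g : Nat) : Mx α (genC g) * Mx α (gen4C g) = 1 := by
  rw [Mx_mul hα (eqM_gen g).1, Mx_one]

theorem Mx_gen_mul' (g : Nat) : Mx α (gen4C g) * Mx α (genC g) = 1 := by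
  rw [Mx_mul hα (eqM_gen g).2, Mx_one]

/-- The generators in the general linear group. -/
def gGL (g : Nat) : GL (Fin 4) F := ⟨Mx α (genC g), Mx α (gen4C g), Mx_gen_mul hα g, Mx_gen_mul' hα g⟩

/-- The square of the square. -/
def pow4C (d : Nat) : Nat := mul8 (mul8 d d) (mul8 d d)

omit hα in
theorem star_check (g : Nat) : ∀ p r : Fin 4,
    Nat.xor (mul8 (dig (genC g) (4 * (pairOf p).1.val + (pairOf r).1.val)) (dig (genC g) (4 * (pairOf p).2.val + (pairOf r).2.val)))
      (mul8 (dig (genC g) (4 * (pairOf p).2.val + (pairOf r).1.val)) (dig (genC g) (4 * (pairOf p).1.val + (pairOf r).2.val))) =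
      pow4C (dig (genC g) (4 * p.val + r.val)) := by
  unfold genC
  cases Nat.beq g 0 <;> decide +kernel

omit hα in
theorem alt_check (g : Nat) : ∀ i j : Fin 4,
    Nat.xor (mul8 (dig (genC g) (4 * 0 + i.val)) (dig (genC g) (4 * 3 + j.val)))
      (Nat.xor (mul8 (dig (genC g) (4 * 1 + i.val)) (dig (genC g) (4 * 2 + j.val)))
        (Nat.xor (mul8 (dig (genC g) (4 * 2 + i.val)) (dig (genC g) (4 * 1 + j.val)))
          (mul8 (dig (genC g) (4 * 3 + i.val)) (dig (genC g) (4 * 0 + j.val))))) =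
      if i.val + j.val = 3 then 1 else 0 := by
  unfold genC
  cases Nat.beq g 0 <;> decide +kernel

theorem star_gen (g : Nat) : star4 (Mx α (genC g)) = (Mx α (genC g)).map (fun x => x ^ 4) := by
  ext p r
  simp only [star4, Matrix.of_apply, Matrix.map_apply, Mx]
  have h1 := congrArg (emN α) (star_check g p r)
  rw [emN_xor hα (mul8_lt _ _) (mul8_lt _ _), emN_mul' hα, emN_mul' hα] at h1
  rw [CharTwo.sub_eq_add, h1]
  unfold pow4C
  rw [emN_mul hα (mul8_lt _ _) (mul8_lt _ _), emN_mul hα (dig_lt _ _) (dig_lt _ _)]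
  ring

omit [CharP F 2] hα in
/-- A criterion for the symplectic group. -/
theorem mem_sp4 (g : GL (Fin 4) F)
    (h : ∀ i j : Fin 4, (g : Matrix (Fin 4) (Fin 4) F) 0 i * (g : Matrix (Fin 4) (Fin 4) F) 3 j +
      (g : Matrix (Fin 4) (Fin 4) F) 1 i * (g : Matrix (Fin 4) (Fin 4) F) 2 j +
      (g : Matrix (Fin 4) (Fin 4) F) 2 i * (g : Matrix (Fin 4) (Fin 4) F) 1 j +
      (g : Matrix (Fin 4) (Fin 4) F) 3 i * (g : Matrix (Fin 4) (Fin 4) F) 0 j = if i.val + j.val = 3 then 1 else 0) :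
    g ∈ Sp4 F := by
  intro u v
  have e : ∀ w : Fin 4 → F, (Units.coeHom (Matrix (Fin 4) (Fin 4) F) g) *ᵥ w = (g : Matrix (Fin 4) (Fin 4) F) *ᵥ w := fun _ => rfl
  rw [e, e]
  have hneg : ∀ i j : Fin 4, i.val + j.val ≠ 3 → (g : Matrix (Fin 4) (Fin 4) F) 0 i * (g : Matrix (Fin 4) (Fin 4) F) 3 j +
      (g : Matrix (Fin 4) (Fin 4) F) 1 i * (g : Matrix (Fin 4) (Fin 4) F) 2 j +
      (g : Matrix (Fin 4) (Fin 4) F) 2 i * (g : Matrix (Fin 4) (Fin 4) F) 1 j +
      (g : Matrix (Fin 4) (Fin 4) F) 3 i * (g : Matrix (Fin 4) (Fin 4) F) 0 j = 0 := fun i j hij => by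
    rw [h, if_neg hij]
  have hpos : ∀ i j : Fin 4, i.val + j.val = 3 → (g : Matrix (Fin 4) (Fin 4) F) 0 i * (g : Matrix (Fin 4) (Fin 4) F) 3 j +
      (g : Matrix (Fin 4) (Fin 4) F) 1 i * (g : Matrix (Fin 4) (Fin 4) F) 2 j +
      (g : Matrix (Fin 4) (Fin 4) F) 2 i * (g : Matrix (Fin 4) (Fin 4) F) 1 j +
      (g : Matrix (Fin 4) (Fin 4) F) 3 i * (g : Matrix (Fin 4) (Fin 4) F) 0 j = 1 := fun i j hij => by
    rw [h, if_pos hij]
  have h00 := hneg 0 0 (by decide)
  have h01 := hneg 0 1 (by decide)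
  have h02 := hneg 0 2 (by decide)
  have h03 := hpos 0 3 (by decide)
  have h10 := hneg 1 0 (by decide)
  have h11 := hneg 1 1 (by decide)
  have h12 := hpos 1 2 (by decide)
  have h13 := hneg 1 3 (by decide)
  have h20 := hneg 2 0 (by decide)
  have h21 := hpos 2 1 (by decide)
  have h22 := hneg 2 2 (by decide)
  have h23 := hneg 2 3 (by decide)
  have h30 := hpos 3 0 (by decide)
  have h31 := hneg 3 1 (by decide)
  have h32 := hneg 3 2 (by decide)
  have h33 := hneg 3 3 (by decide)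
  simp only [altForm4, Matrix.mulVec, dotProduct, Fin.sum_univ_four]
  linear_combination u 0 * v 0 * h00 + u 0 * v 1 * h01 + u 0 * v 2 * h02 + u 0 * v 3 * h03 +
    u 1 * v 0 * h10 + u 1 * v 1 * h11 + u 1 * v 2 * h12 + u 1 * v 3 * h13 +
    u 2 * v 0 * h20 + u 2 * v 1 * h21 + u 2 * v 2 * h22 + u 2 * v 3 * h23 +
    u 3 * v 0 * h30 + u 3 * v 1 * h31 + u 3 * v 2 * h32 + u 3 * v 3 * h33

theorem gGL_sp (g : Nat) : gGL hα g ∈ Sp4 F := by
  apply mem_sp4
  intro i j
  have h1 := congrArg (emN α) (alt_check g i j)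
  rw [emN_xor hα (mul8_lt _ _) (xor_lt (mul8_lt _ _) (xor_lt (mul8_lt _ _) (mul8_lt _ _))),
    emN_xor hα (mul8_lt _ _) (xor_lt (mul8_lt _ _) (mul8_lt _ _)), emN_xor hα (mul8_lt _ _) (mul8_lt _ _),
    emN_mul' hα, emN_mul' hα, emN_mul' hα, emN_mul' hα] at h1
  have h2 : emN α (if i.val + j.val = 3 then 1 else 0) = if i.val + j.val = 3 then 1 else 0 := by
    split_ifs
    · exact emN_one
    · exact emN_zero
  rw [h2] at h1
  rw [← h1]
  show Mx α (genC g) 0 i * Mx α (genC g) 3 j + Mx α (genC g) 1 i * Mx α (genC g) 2 j +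
    Mx α (genC g) 2 i * Mx α (genC g) 1 j + Mx α (genC g) 3 i * Mx α (genC g) 0 j = _
  simp only [Mx, Matrix.of_apply]
  simp only [Fin.isValue, Fin.val_zero, Fin.val_one, Fin.val_two, Fin.coe_ofNat_eq_mod, Nat.reduceMod, add_assoc]

/-- The generators of `Sz(8)`. -/
def gG (g : Nat) : ↥(Lie.Sz F 4) :=
  ⟨gGL hα g, Subgroup.subset_closure ⟨gGL_sp hα g, star_gen hα g⟩⟩

/-- The vertices. -/
noncomputable def fF (v : Nat) : ↥(Lie.Sz F 4) := tT parF (gG hα) v

theorem fF_zero : fF hα 0 = 1 := tT_zero _ _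

theorem fF_succ {v : Nat} (h0 : 0 < v) (hv : v < nV) : fF hα v = gG hα (pgV parF v) * fF hα (parV parF v) := by
  obtain ⟨h1, -⟩ := tree_unfold h0 hv
  unfold fF
  rw [tT_eq, dif_pos ⟨h0, h1⟩]

/-- The matrix of a vertex. -/
theorem fF_val {v : Nat} (hv : v < nV) : (((fF hα v : ↥(Lie.Sz F 4)) : GL (Fin 4) F) : Matrix (Fin 4) (Fin 4) F) = Mx α (codeT v) := by
  induction v using Nat.strong_induction_on with
  | _ v ih =>
    rcases Nat.eq_zero_or_pos v with rfl | h0
    · rw [fF_zero, code_zero, Mx_one]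
      rfl
    · obtain ⟨h1, h2, -⟩ := tree_unfold h0 hv
      have hu : parV parF v < nV := by omega
      rw [fF_succ hα h0 hv]
      have h3 := ih _ h1 hu
      have h4 := (edge_unfold hu (pgV_lt parF v)).2.2.2.2.2.2.2.2
      rw [h2] at h4
      rw [← Mx_mul hα h4, ← h3]
      rfl

theorem fF_edge (v g : Nat) (hv : v < nV) (hg : g < 2) : fF hα (nxF v g) = gG hα g * fF hα v := by
  obtain ⟨h1, -, -, -, -, -, -, -, h2⟩ := edge_unfold hv hg
  apply Subtype.ext
  apply Units.ext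
  rw [fF_val hα h1, ← Mx_mul hα h2, ← fF_val hα hv]
  rfl

theorem fF_inj (v : Nat) (hv : v < nV) (h : fF hα v = 1) : v = 0 := by
  by_contra hne
  have h0 : 0 < v := Nat.pos_of_ne_zero hne
  obtain ⟨-, -, -, -, -, h1⟩ := tree_unfold h0 hv
  have h2 : Mx α (codeT v) = 1 := by
    rw [← fF_val hα hv, h]
    rfl
  rw [isOne_of hα h2] at h1
  exact Bool.noConfusion h1

theorem fF_injOn {v w : Nat} (hv : v < nV) (hw : w < nV) (h : fF hα v = fF hα w) : v = w := by
  induction v using Nat.strong_induction_on generalizing w with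
  | _ v ih =>
    rcases Nat.eq_zero_or_pos v with rfl | h0
    · rw [fF_zero] at h
      exact (fF_inj hα w hw h.symm).symm
    · obtain ⟨h1, h2, -⟩ := tree_unfold h0 hv
      have hu : parV parF v < nV := by omega
      have hg := pgV_lt parF v
      set u := parV parF v with hu'
      set g := pgV parF v with hg'
      have e1 := edge_unfold hw hg
      have e2 := edge_unfold e1.1 hg
      have e3 := edge_unfold e2.1 hg
      have e4 := edge_unfold e3.1 hg
      have hw4 := e1.2.2.1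
      have h3 : fF hα v = gG hα g * fF hα u := by
        rw [← fF_edge hα u g hu hg, h2]
      have h4 : fF hα w = gG hα g * fF hα (nxF (nxF (nxF (nxF w g) g) g) g) := by
        rw [← fF_edge hα _ g e4.1 hg, hw4]
      rw [h3, h4] at h
      have h5 := ih u h1 hu e4.1 (mul_left_cancel h)
      rw [← h2, h5, hw4]

theorem fF_mem {v : Nat} (hv : v < nV) : fF hα v ∈ closure {gG hα 0, gG hα 1} := by
  induction v using Nat.strong_induction_on with
  | _ v ih =>
    rcases Nat.eq_zero_or_pos v with rfl | h0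
    · rw [fF_zero]
      exact one_mem _
    · obtain ⟨h1, -⟩ := tree_unfold h0 hv
      rw [fF_succ hα h0 hv]
      refine mul_mem ?_ (ih _ h1 (by omega))
      have hg := pgV_lt parF v
      have hg' : pgV parF v = 0 ∨ pgV parF v = 1 := by omega
      rcases hg' with h | h <;> rw [h] <;> exact subset_closure (by simp)

/-- The generators generate. -/
theorem gG_gen (hcard : Nat.card ↥(Lie.Sz F 4) = 29120) : closure {gG hα 0, gG hα 1} = ⊤ := by
  haveI : Finite ↥(Lie.Sz F 4) := Nat.finite_of_card_ne_zero (by rw [hcard]; norm_num)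
  apply Subgroup.eq_top_of_le_card
  rw [hcard]
  let φ : Fin 29120 → ↥(closure {gG hα 0, gG hα 1}) := fun v => ⟨fF hα v.1, fF_mem hα v.2⟩
  have hφ : Function.Injective φ := by
    intro a b hab
    apply Fin.ext
    exact fF_injOn hα a.2 b.2 (congrArg Subtype.val hab)
  have h := Nat.card_le_card_of_injective φ hφ
  simpa using h

/-- The group data of the Cayley graph. -/
theorem groupData (hcard : Nat.card ↥(Lie.Sz F 4) = 29120) : GroupData coverCert ↥(Lie.Sz F 4) (gG hα) (fF hα) :=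
  ⟨fF_zero hα, fF_edge hα, gG_gen hα hcard, fF_inj hα⟩

end Field

/-- A word with the first value. -/
def word1 : List Nat := [0, 1, 1, 1, 0, 1, 1, 1, 0, 1, 1, 1, 0, 1, 1, 1, 0, 1, 1, 1, 0, 1, 1, 1, 0, 1, 1, 1]

/-- A word with the second value. -/
def word2 : List Nat := [0, 0, 1, 0, 0, 1, 0, 0, 1, 0, 0, 1, 0, 0, 1, 0, 0, 1, 0, 0, 1]

theorem word1_val : wEnd nxF word1 0 = 0 ∧ Cover.wAdd nxF addC 0 kcF word1 0 = 1 := by decide +kernel
theorem word2_val : wEnd nxF word2 0 = 0 ∧ Cover.wAdd nxF addC 0 kcF word2 0 = 2 := by decide +kernel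

/-- All translations lie in the group. -/
theorem tau_all (c : A2) : tau nV c ∈ GG coverCert := by
  have h2 := tau_of_word coverCert word1 (by decide) word1_val.1
  have h3 := tau_of_word coverCert word2 (by decide) word2_val.1
  rw [word1_val.2] at h2
  rw [word2_val.2] at h3
  have key : ∀ c : A2, ∃ s t : Fin 2, c = decC 1 ^ s.val * decC 2 ^ t.val := by decide
  obtain ⟨s, t, rfl⟩ := key c
  rw [tau_mul, tau_pow, tau_pow]
  exact (GG coverCert).mul_mem ((GG coverCert).pow_mem h2 _) ((GG coverCert).pow_mem h3 _)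

theorem card_A2 : Nat.card A2 = 4 := by
  rw [Nat.card_eq_fintype_card]
  rfl

/-- **The central extension by `ℤ₂ × ℤ₂`.** -/
theorem cover2 {F : Type*} [Field F] [CharP F 2] {α : F} (hα : α ^ 3 = α + 1) (hcard : Nat.card ↥(Lie.Sz F 4) = 29120) :
    IsStemExtension (sig (groupData hα hcard)) ∧ Nonempty ((sig (groupData hα hcard)).ker ≃* A2) := by
  refine exists_stem coverCert (groupData hα hcard) tau_all 5 (fun _ _ => dvd_rfl) ?_
  rw [card_A2]
  norm_num

/-- Stem extensions and isomorphisms of the covering group. -/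
theorem stem_comp_equiv {Γ Γ' G : Type*} [Group Γ] [Group Γ'] [Group G] (σ : Γ →* G) (e : Γ' ≃* Γ) (h : IsStemExtension σ) :
    IsStemExtension (σ.comp e.toMonoidHom) := by
  obtain ⟨h1, h2, h3⟩ := h
  refine ⟨h1.comp e.surjective, ?_, ?_⟩
  · intro x hx
    have h4 : e x ∈ Subgroup.center Γ := h2 hx
    rw [Subgroup.mem_center_iff] at h4 ⊢
    intro y
    apply e.injective
    rw [map_mul, map_mul]
    exact h4 (e y)
  · intro x hx
    have h4 : e x ∈ commutator Γ := h3 hx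
    have h5 : (commutator Γ').map e.toMonoidHom = commutator Γ := by
      rw [_root_.commutator_def, Subgroup.map_commutator, Subgroup.map_top_of_surjective _ e.surjective]
      rfl
    rw [← h5] at h4
    obtain ⟨y, hy, hy'⟩ := h4
    have : y = x := e.injective hy'
    rwa [← this]

/-- The kernels of a composite with an isomorphism. -/
noncomputable def kerEquivComp {Γ Γ' G : Type*} [Group Γ] [Group Γ'] [Group G] (σ : Γ →* G) (e : Γ' ≃* Γ) :
    (σ.comp e.toMonoidHom).ker ≃* σ.ker where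
  toFun x := ⟨e x.1, x.2⟩
  invFun y := ⟨e.symm y.1, by
    show σ (e (e.symm y.1)) = 1
    rw [e.apply_symm_apply]
    exact y.2⟩
  left_inv x := Subtype.ext (e.symm_apply_apply _)
  right_inv y := Subtype.ext (e.apply_symm_apply _)
  map_mul' x y := Subtype.ext (map_mul e _ _)

universe u

/-- **The existence of the cover of `Sz(8)`.** -/
theorem exists_cover {F : Type u} [Field F] [CharP F 2] {α : F} (hα : α ^ 3 = α + 1) (hcard : Nat.card ↥(Lie.Sz F 4) = 29120) :
    ∃ (Γ : Type u) (_ : Group Γ) (_ : Finite Γ) (σ : Γ →* ↥(Lie.Sz F 4)), IsStemExtension σ ∧ Nonempty (σ.ker ≃* A2) := by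
  obtain ⟨h1, ⟨e⟩⟩ := cover2 hα hcard
  let u : ULift.{u} (GG (coverCert)) ≃* GG (coverCert) := MulEquiv.ulift
  refine ⟨ULift.{u} (GG (coverCert)), inferInstance, inferInstance, (sig (groupData hα hcard)).comp u.toMonoidHom,
    stem_comp_equiv _ u h1, ⟨(kerEquivComp _ u).trans e⟩⟩

end Cfsg.Agent.Lib.SchurCert.Sz8.Group
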